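import Cfsg.Agent.SporOut.HeFrame
import Cfsg.Agent.SporOut.HeSchurData

/-! The checks of the certificates for the Schur multiplier of the Held group. -/

set_option autoImplicit false
set_option maxRecDepth 100000

namespace Cfsg.Agent.SporOut.He

open Cfsg.Agent.SchurCert

theorem twoCert_check : twoCert.check (mulC frame chainA) (oneC chainA) = true := by decide +kernel

theorem threeCert_check : threeCert.check (mulC frame chainA) (oneC chainA) = true := by decide +kernel

theorem fiveCert_check : fiveCert.check (mulC frame chainA) (oneC chainA) = true := by decide +kernel

theorem sevenCert_check : sevenCert.check (mulC frame chainA) (oneC chainA) = true := by decide +kernel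

/-- The words of a list have the listed codes. -/
noncomputable def wordsOK (ws : List ℕ) (cs : List ℕ) : Bool :=
  (ws.all fun c => frame.ok c) && decide (ws.map (encW frame chainA) = cs)

theorem words_check : wordsOK twoGens twoCert.gens = true ∧ wordsOK twoFus twoCert.gs = true ∧
    wordsOK threeGens threeCert.gens = true ∧ wordsOK threeFus threeCert.gs = true ∧
    wordsOK fiveGens fiveCert.gens = true ∧ wordsOK fiveFus fiveCert.gs = true ∧
    wordsOK sevenGens sevenCert.gens = true ∧ wordsOK sevenFus sevenCert.gs = true := by
  decide +kernel

end Cfsg.Agent.SporOut.He
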