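import Cfsg.Agent.SporOut.He
import Cfsg.Agent.SporOut.HeSchurCheck
import Cfsg.Agent.SchurCert.Trivial

/-!
The Schur multiplier of the Held group is trivial.
-/

set_option autoImplicit false
set_option maxRecDepth 100000

namespace Cfsg.Agent.SporOut.He

open Cfsg.Agent.CosetCert Cfsg.Agent.SchurCert

theorem gl_mul_self {l : ℕ} (h1 : 1 ≤ l) (h2 : l ≤ 7) : gl l * gl l = 1 := by
  have hi : HeldSp.data.inv l = l := by
    have : ∀ m < 8, HeldSp.data.inv m = m := by decide +kernel
    exact this l (by omega)
  have h := PresData.act_inv HeldSp.valid l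
  rw [hi] at h
  show gl l * gl l = 1
  rw [gl]
  nth_rewrite 1 [h]
  exact inv_mul_cancel _

theorem frame_invol : frame.Invol := fun l h1 h2 => by
  show rep (gl l) * rep (gl l) = 1
  rw [← map_mul, gl_mul_self h1 h2, map_one]

/-- The code of the image of the Held group. -/
noncomputable def code : Code K := siftCode chainA_valid frame_valid frame_invol (by norm_num)

theorem exists_wits {ws cs : List ℕ} (h : wordsOK ws cs = true) (i : ℕ) :
    ∃ g : K, code.enc g = cs.getD i code.one := by
  simp only [wordsOK, Bool.and_eq_true, List.all_eq_true, decide_eq_true_eq] at h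
  obtain ⟨hok, rfl⟩ := h
  rw [List.getD_eq_getElem?_getD, List.getElem?_map]
  cases hi : ws[i]? with
  | none => exact ⟨1, code.enc_one⟩
  | some c =>
    refine ⟨el c, ?_⟩
    show encC chainA_valid (el c).1 = encW frame chainA c
    rw [el_val, encC_val chainA_valid frame_valid (hok c (List.mem_of_getElem? hi))]

theorem not_dvd_of_cert (D : SchurCert.Cert) (p q m : ℕ) [Fact p.Prime] (hp : D.P.p = p) (hq : p ^ D.P.n = q)
    {wg wf : List ℕ} (hg : wordsOK wg D.gens = true) (hf : wordsOK wf D.gs = true)
    (hchk : D.check (mulC frame chainA) (oneC chainA) = true) (hm : 4030387200 = q * m)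
    (hpm : ¬ p ∣ m) : ¬ p ∣ Nat.card (CentralExt.schurMult K) := by
  classical
  have hfinite : Finite K := Nat.finite_of_card_ne_zero (by rw [card_K]; norm_num)
  choose gen hgen using exists_wits hg
  choose gs hgs using exists_wits hf
  have hchk' : D.check code.mul code.one = true := hchk
  have hc' := hchk'
  simp only [SchurCert.Cert.check, Bool.and_eq_true] at hc'
  obtain ⟨-, hcard⟩ := card_initGroup_of_groupOK code D (hp ▸ Fact.out) gen
    (fun i _ => hgen i) hc'.1.1.1 hc'.1.1.2
  rw [hp, hq] at hcard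
  refine not_dvd_schurMult_of_cert code D p hp gen gs (fun i _ => hgen i) hgs ?_ hchk'
  rw [index_initGroup card_K hcard hm]
  exact hpm

theorem hasTrivialMultiplier_K : Cfsg.HasCyclicSchurMultiplier K 1 := by
  have hfinite : Finite K := Nat.finite_of_card_ne_zero (by rw [card_K]; norm_num)
  obtain ⟨w1, w2, w3, w4, w5, w6, w7, w8⟩ := words_check
  refine CentralExt.hasCyclicSchurMultiplier_one_of_not_dvd fun p hp => ?_
  haveI : Fact p.Prime := ⟨hp⟩
  rcases eq_or_ne p 2 with rfl | h2
  · exact not_dvd_of_cert twoCert 2 1024 3935925 rfl rfl w1 w2 twoCert_check (by norm_num) (by norm_num)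
  rcases eq_or_ne p 3 with rfl | h3
  · exact not_dvd_of_cert threeCert 3 27 149273600 rfl rfl w3 w4 threeCert_check (by norm_num) (by norm_num)
  rcases eq_or_ne p 5 with rfl | h5
  · exact not_dvd_of_cert fiveCert 5 25 161215488 rfl rfl w5 w6 fiveCert_check (by norm_num) (by norm_num)
  rcases eq_or_ne p 7 with rfl | h7
  · exact not_dvd_of_cert sevenCert 7 343 11750400 rfl rfl w7 w8 sevenCert_check (by norm_num) (by norm_num)
  refine not_dvd_schurMult_of_sq_not_dvd p ?_
  rw [card_K, show (4030387200 : ℕ) = (2 ^ 10 * 3 ^ 3 * 5 ^ 2 * 7 ^ 3) * 17 by norm_num]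
  intro h
  have key : ∀ {q : ℕ}, q.Prime → p ≠ q → Nat.Coprime p q := fun hq hne =>
    (Nat.coprime_primes hp hq).2 hne
  have hco : Nat.Coprime (p ^ 2) (2 ^ 10 * 3 ^ 3 * 5 ^ 2 * 7 ^ 3) := by
    refine Nat.Coprime.pow_left 2 ?_
    exact (((key Nat.prime_two h2).pow_right 10).mul_right ((key Nat.prime_three h3).pow_right 3)).mul_right
      ((key Nat.prime_five h5).pow_right 2) |>.mul_right ((key (by norm_num) h7).pow_right 3)
  have h' := hco.dvd_of_dvd_mul_left h
  have hle : p ^ 2 ≤ 17 := Nat.le_of_dvd (by norm_num) h'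
  have hp5 : p < 5 := by nlinarith
  interval_cases p <;> first | exact h2 rfl | exact h3 rfl | exact absurd hp (by norm_num)

end Cfsg.Agent.SporOut.He

namespace Cfsg.Agent.SporOut.He

/-- The multiplier of the presented group. -/
theorem hasTrivialMultiplier_He : Cfsg.HasCyclicSchurMultiplier Cfsg.Spor.He 1 := by
  have hfinite : Finite Cfsg.Spor.He :=
    Nat.finite_of_card_ne_zero (by rw [Cfsg.Agent.S1695.result.2]; norm_num)
  exact CentralExt.hasSchurMultiplier_congr (MonoidHom.ofInjective rep_injective).symm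
    hasTrivialMultiplier_K

end Cfsg.Agent.SporOut.He
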